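import Cfsg.Agent.Janko2.CoverData
import Cfsg.Prelude.Def_KGroupFacts

/-!
The Schur multiplier of the Hall–Janko group has order two.
-/

set_option autoImplicit false

namespace Cfsg.Agent.Janko2.Mod5

open Cfsg Cfsg.Spor SchurCert

theorem enc_getD {W : List (List (Fin 4))} {L : List ℕ} (h : W.map codeW = L) (i : ℕ) :
    code.enc (elW (W.getD i [])) = L.getD i code.one := by
  rw [enc_elW, ← h]
  exact (List.getD_map (f := codeW) (l := W) (n := i) (d := ([] : List (Fin 4)))).symm

theorem not_dvd_of_cert (D : Cert) (p m : ℕ) [Fact p.Prime] (hDp : D.P.p = p)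
    (W F : List (List (Fin 4))) (hw : W.map codeW = D.gens ∧ F.map codeW = D.gs)
    (hcheck : D.check cmul oneCode = true) (hN : 1209600 = p ^ D.P.n * m) (hm : ¬ p ∣ m) :
    ¬ p ∣ Nat.card (CentralExt.schurMult ↥twoJ2) := by
  haveI : Finite ↥twoJ2 := Nat.finite_of_card_ne_zero (by rw [card_twoJ2]; norm_num)
  have hchk := hcheck
  simp only [Cert.check, Bool.and_eq_true] at hchk
  have hgen : ∀ i < D.P.n, code.enc (elW (W.getD i [])) = D.gens.getD i code.one :=
    fun i _ => enc_getD hw.1 i
  obtain ⟨-, hcard⟩ := card_initGroup_of_groupOK code D (hDp ▸ Fact.out)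
    (fun i => elW (W.getD i [])) hgen hchk.1.1.1 hchk.1.1.2
  refine not_dvd_schurMult_of_cert code D p hDp (fun i => elW (W.getD i []))
    (fun i => elW (F.getD i [])) hgen (fun i => enc_getD hw.2 i) ?_ hcheck
  rw [index_initGroup card_twoJ2 hcard (m := m) (by rw [hDp]; exact hN)]
  exact hm

theorem sq_dvd_cases : ∀ q < 1100, q ^ 2 ∣ 1209600 → q % 2 = 0 ∨ q % 3 = 0 ∨ q % 5 = 0 ∨ q = 1 := by
  decide +kernel

theorem twoJ2_trivial_multiplier : HasCyclicSchurMultiplier ↥twoJ2 1 := by
  haveI : Finite ↥twoJ2 := Nat.finite_of_card_ne_zero (by rw [card_twoJ2]; norm_num)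
  refine CentralExt.hasCyclicSchurMultiplier_one_of_not_dvd fun p hp => ?_
  haveI : Fact p.Prime := ⟨hp⟩
  rcases eq_or_ne p 2 with rfl | h2
  · exact not_dvd_of_cert twoCert 2 4725 rfl twoWords twoFus two_words two_check
      (by decide +kernel) (by norm_num)
  rcases eq_or_ne p 3 with rfl | h3
  · exact not_dvd_of_cert threeCert 3 44800 rfl threeWords threeFus three_words three_check
      (by decide +kernel) (by norm_num)
  rcases eq_or_ne p 5 with rfl | h5
  · exact not_dvd_of_cert fiveCert 5 48384 rfl fiveWords fiveFus five_words five_check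
      (by decide +kernel) (by norm_num)
  refine not_dvd_schurMult_of_sq_not_dvd p fun h => ?_
  rw [card_twoJ2] at h
  have hle : p ^ 2 ≤ 1209600 := Nat.le_of_dvd (by norm_num) h
  have hlt : p < 1100 := by nlinarith
  rcases sq_dvd_cases p hlt h with h' | h' | h' | h'
  · exact h2 ((Nat.prime_dvd_prime_iff_eq Nat.prime_two hp).1 (Nat.dvd_of_mod_eq_zero h')).symm
  · exact h3 ((Nat.prime_dvd_prime_iff_eq Nat.prime_three hp).1 (Nat.dvd_of_mod_eq_zero h')).symm
  · exact h5 ((Nat.prime_dvd_prime_iff_eq Nat.prime_five hp).1 (Nat.dvd_of_mod_eq_zero h')).symm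
  · exact hp.ne_one h'

theorem elW_inv {w : List (Fin 4)} (h : codeW (w ++ w.reverse) = oneCode) :
    elW w.reverse = (elW w)⁻¹ := by
  have h1 : elW (w ++ w.reverse) = 1 := code.enc_inj (by rw [enc_elW, h, code.enc_one]; rfl)
  rw [elW, List.map_append, List.prod_append] at h1
  exact eq_inv_of_mul_eq_one_right h1

theorem negT_mem_commutator : negT ∈ commutator ↥twoJ2 := by
  obtain ⟨ha, hb, hc⟩ := word_facts
  have happ : ∀ u v : List (Fin 4), elW (u ++ v) = elW u * elW v := fun u v => by
    simp only [elW, List.map_append, List.prod_append]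
  have e : elW (wordA ++ wordB ++ wordA.reverse ++ wordB.reverse) = negT := code.enc_inj (by
    rw [enc_elW, hc, code_enc, mat_negT])
  rw [happ, happ, happ, elW_inv ha, elW_inv hb] at e
  rw [← e, commutator_def, ← commutatorElement_def]
  exact Subgroup.commutator_mem_commutator (Subgroup.mem_top _) (Subgroup.mem_top _)

theorem isStemExtension_mk :
    IsStemExtension (QuotientGroup.mk' (Subgroup.center ↥twoJ2)) := by
  refine ⟨QuotientGroup.mk'_surjective _, le_of_eq (QuotientGroup.ker_mk' _), ?_⟩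
  rw [QuotientGroup.ker_mk']
  intro z hz
  rcases mem_ker_act.1 (center_eq_ker ▸ hz) with rfl | rfl
  · exact one_mem _
  · exact negT_mem_commutator

theorem schurMultiplier_J2 : HasCyclicSchurMultiplier J2 2 := by
  haveI : Finite ↥twoJ2 := Nat.finite_of_card_ne_zero (by rw [card_twoJ2]; norm_num)
  haveI : Fact (Nat.Prime 2) := ⟨Nat.prime_two⟩
  refine CentralExt.hasSchurMultiplier_of_universal isStemExtension_mk twoJ2_trivial_multiplier ?_
  refine mulEquivOfPrimeCardEq (p := 2) ?_ (by simp)
  rw [QuotientGroup.ker_mk']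
  exact card_center

end Cfsg.Agent.Janko2.Mod5
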