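import Cfsg.Agent.Janko2.Unitary
import Mathlib.FieldTheory.Finite.GaloisField

/-!
The Hall–Janko group on the cosets of the unitary group: rank three, subdegrees 1, 36 and 63.
-/

set_option autoImplicit false

namespace Cfsg.Agent.Janko2

open Cfsg.Spor

/-- the subgroup of index 100 -/
noncomputable def Hu : Subgroup J2 := Hs.comap j2Equiv.toMonoidHom

/-- the points of the coset space -/
noncomputable def huPt : J2 ⧸ Hu → Fin 100 :=
  Quotient.lift (fun g => hund (j2Equiv g) 0) fun a b hab => by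
    have h : j2Equiv (a⁻¹ * b) ∈ Hs := QuotientGroup.leftRel_apply.1 hab
    rw [map_mul, map_inv, mem_Hs, map_mul, map_inv, Equiv.Perm.mul_apply, Equiv.Perm.inv_eq_iff_eq] at h
    exact h.symm

theorem huPt_mk (g : J2) : huPt (QuotientGroup.mk g) = hund (j2Equiv g) 0 := rfl

theorem huPt_smul (g : J2) (c : J2 ⧸ Hu) : huPt (g • c) = hund (j2Equiv g) (huPt c) := by
  induction c using QuotientGroup.induction_on with
  | _ c =>
    rw [MulAction.Quotient.smul_mk, huPt_mk, huPt_mk, smul_eq_mul, map_mul, map_mul,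
      Equiv.Perm.mul_apply]

theorem huPt_injective : Function.Injective huPt := by
  intro a b
  induction a using QuotientGroup.induction_on with
  | _ a =>
  induction b using QuotientGroup.induction_on with
  | _ b =>
    intro h
    rw [huPt_mk, huPt_mk] at h
    refine QuotientGroup.eq.2 ?_
    show j2Equiv (a⁻¹ * b) ∈ Hs
    rw [map_mul, map_inv, mem_Hs, map_mul, map_inv, Equiv.Perm.mul_apply, ← h]
    exact (hund (j2Equiv a)).symm_apply_apply 0

theorem subgroup_hundred : ∃ H : Subgroup J2, H.index = 100 ∧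
    (∃ (F : Type) (_ : Field F) (_ : Fintype F), Fintype.card F = 9 ∧ Nonempty (↥H ≃* Cfsg.PSU 3 F 3)) ∧
    ∃ c₁ c₂ : J2 ⧸ H, (MulAction.orbit ↥H c₁).ncard = 36 ∧ (MulAction.orbit ↥H c₂).ncard = 63 := by
  refine ⟨Hu, ?_, ?_, ?_⟩
  · rw [Hu, Subgroup.index_comap_of_surjective _ j2Equiv.surjective, index_Hs]
  · have : Fact (Nat.Prime 3) := ⟨Nat.prime_three⟩
    let inst : Fintype (GaloisField 3 2) := Fintype.ofFinite _
    have hcard : Fintype.card (GaloisField 3 2) = 9 := by
      rw [← Nat.card_eq_fintype_card, GaloisField.card 3 2 (by norm_num)]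
      norm_num
    refine ⟨GaloisField 3 2, inferInstance, inst, hcard, ?_⟩
    obtain ⟨f⟩ := Hs_psu hcard
    let e : ↥Hu ≃* ↥Hs :=
      { toFun := fun g => ⟨j2Equiv g.1, g.2⟩
        invFun := fun g => ⟨j2Equiv.symm g.1, by
          show j2Equiv (j2Equiv.symm g.1) ∈ Hs
          rw [j2Equiv.apply_symm_apply]
          exact g.2⟩
        left_inv := fun g => Subtype.ext (j2Equiv.symm_apply_apply g.1)
        right_inv := fun g => Subtype.ext (j2Equiv.apply_symm_apply g.1)
        map_mul' := fun a b => Subtype.ext (map_mul j2Equiv a.1 b.1) }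
    exact ⟨e.trans f⟩
  · have key : ∀ r : Fin 2, ∃ c : J2 ⧸ Hu, (MulAction.orbit ↥Hu c).ncard = [36, 63].getD r.val 0 := by
      intro r
      obtain ⟨j, hj⟩ := orbit_sizes r
      refine ⟨QuotientGroup.mk (j2Equiv.symm (setRep j)), ?_⟩
      have hc : huPt (QuotientGroup.mk (j2Equiv.symm (setRep j))) = j := by
        rw [huPt_mk, j2Equiv.apply_symm_apply, setRep_zero]
      rw [← Set.ncard_image_of_injective _ huPt_injective, ← hj]
      congr 1
      ext i
      simp only [Set.mem_image, MulAction.mem_orbit_iff, Set.mem_ofPred_eq]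
      constructor
      · rintro ⟨_, ⟨g, rfl⟩, rfl⟩
        refine ⟨j2Equiv g.1, g.2, ?_⟩
        exact ((huPt_smul g.1 _).trans (by rw [hc])).symm
      · rintro ⟨g, hg, rfl⟩
        have hg' : j2Equiv.symm g ∈ Hu := by
          show j2Equiv (j2Equiv.symm g) ∈ Hs
          rw [j2Equiv.apply_symm_apply]
          exact hg
        refine ⟨_, ⟨⟨_, hg'⟩, rfl⟩, ?_⟩
        exact (huPt_smul (j2Equiv.symm g) _).trans (by rw [hc, j2Equiv.apply_symm_apply])
    obtain ⟨c₁, h₁⟩ := key 0
    obtain ⟨c₂, h₂⟩ := key 1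
    exact ⟨c₁, c₂, h₁, h₂⟩

end Cfsg.Agent.Janko2
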