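import Cfsg.Agent.Janko2.Simple
import Cfsg.Agent.SchurCert.Trivial

/-!
The icosian reflection group as matrices over the quaternions modulo five, coded by numbers.
-/

set_option autoImplicit false

namespace Cfsg.Agent.Janko2.Mod5

open Cfsg.Spor Quaternion IQ

/-- the quaternions modulo five -/
abbrev H5 : Type := ℍ[ZMod 5]

/-- reduction of coordinates -/
def r5 (q : IQ) : H5 := ⟨4 * (q.a0 : ZMod 5), 4 * (q.a1 : ZMod 5), 4 * (q.a2 : ZMod 5), 4 * (q.a3 : ZMod 5)⟩

open Classical in
/-- reduction of an icosian -/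
noncomputable def red (x : ℍ[ℝ]) : H5 :=
  if h : x ∈ icosians then r5 (mem_icosians.1 h).choose else 0

theorem red_val {q : IQ} (hq : memI q = true) : red (val q) = r5 q := by
  rw [red, dif_pos (mem_of_memI hq)]
  exact congrArg r5 (val_inj (mem_icosians.1 (mem_of_memI hq)).choose_spec.2).symm

theorem r5_add (p q : IQ) : r5 (IQ.add p q) = r5 p + r5 q := by
  ext
  · rw [Quaternion.re_add]; simp only [r5, IQ.add, Int.cast_add, mul_add]
  · rw [Quaternion.imI_add]; simp only [r5, IQ.add, Int.cast_add, mul_add]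
  · rw [Quaternion.imJ_add]; simp only [r5, IQ.add, Int.cast_add, mul_add]
  · rw [Quaternion.imK_add]; simp only [r5, IQ.add, Int.cast_add, mul_add]

theorem r5_mul {p q : IQ} (h : mulOK p q = true) : r5 (mul p q) = r5 p * r5 q := by
  have h' : smul 4 (mul p q) = pm p q := of_decide_eq_true h
  have e0 := congrArg (fun r : IQ => (r.a0 : ZMod 5)) h'
  have e1 := congrArg (fun r : IQ => (r.a1 : ZMod 5)) h'
  have e2 := congrArg (fun r : IQ => (r.a2 : ZMod 5)) h'
  have e3 := congrArg (fun r : IQ => (r.a3 : ZMod 5)) h'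
  have h5 : (5 : ZMod 5) = 0 := by decide
  have h16 : ∀ x y : ZMod 5, 4 * x * (4 * y) = x * y := by decide
  simp only [smul, pm] at e0 e1 e2 e3
  push_cast at e0 e1 e2 e3
  simp only [h5, zero_mul, add_zero] at e0 e1 e2 e3
  ext
  · rw [Quaternion.re_mul]; simp only [r5, h16]; linear_combination e0
  · rw [Quaternion.imI_mul]; simp only [r5, h16]; linear_combination e1
  · rw [Quaternion.imJ_mul]; simp only [r5, h16]; linear_combination e2
  · rw [Quaternion.imK_mul]; simp only [r5, h16]; linear_combination e3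

theorem red_add {x y : ℍ[ℝ]} (hx : x ∈ icosians) (hy : y ∈ icosians) :
    red (x + y) = red x + red y := by
  obtain ⟨p, hp, rfl⟩ := mem_icosians.1 hx
  obtain ⟨q, hq, rfl⟩ := mem_icosians.1 hy
  rw [← val_add, red_val (memI_add hp hq), red_val hp, red_val hq, r5_add]

theorem red_mul {x y : ℍ[ℝ]} (hx : x ∈ icosians) (hy : y ∈ icosians) :
    red (x * y) = red x * red y := by
  obtain ⟨p, hp, rfl⟩ := mem_icosians.1 hx
  obtain ⟨q, hq, rfl⟩ := mem_icosians.1 hy
  rw [← val_mul' hp hq, red_val (mul_exact hp hq).2, red_val hp, red_val hq,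
    r5_mul (mul_exact hp hq).1]

theorem red_zero : red 0 = 0 := by
  rw [← val_zero, red_val (by decide +kernel)]
  ext <;> simp [r5, zero]

/-- the axis lines -/
def ax : Fin 3 → Fin 315 := ![0, 305, 314]

/-- the matrix of an element -/
noncomputable def mat (g : ↥twoJ2) : Matrix (Fin 3) (Fin 3) H5 :=
  fun s t => 3 * red ((g.1 (rL (ax s))).1 t)

theorem ax_rv (s t : Fin 3) : rv (ax s) t = if t = s then 2 else 0 := by
  obtain ⟨e0, e1, e2, -⟩ := axis_reps
  fin_cases s <;> fin_cases t <;> simp [ax, rv, e0, e1, e2, vec, val_two, val_zero]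

theorem linear (g : ↥twoJ2) (x : ↥icoLeech) (t : Fin 3) :
    (g.1 x).1 t + (g.1 x).1 t =
      x.1 0 * (g.1 (rL (ax 0))).1 t + x.1 1 * (g.1 (rL (ax 1))).1 t +
        x.1 2 * (g.1 (rL (ax 2))).1 t := by
  have hg : IsU g.1 := twoJ2_le_GU g.2
  obtain ⟨hm, -⟩ := x.2
  have z1 : (fun s => x.1 0 * rv (ax 0) s) ∈ icoLeech := smul_mem_icoLeech (hm 0) (rv_mem _)
  have z2 : ((fun s => x.1 0 * rv (ax 0) s) + fun s => x.1 1 * rv (ax 1) s) ∈ icoLeech := by
    have := sub_mem_icoLeech z1 (smul_mem_icoLeech (neg_mem (hm 1)) (rv_mem (ax 1)))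
    convert this using 1
    funext s
    simp only [Pi.add_apply, Pi.sub_apply, neg_mul, sub_neg_eq_add]
  have z3 : (x.1 + fun s => 1 * x.1 s) ∈ icoLeech := by
    have := sub_mem_icoLeech x.2 (smul_mem_icoLeech (neg_mem (one_mem _)) x.2)
    convert this using 1
    funext s
    simp only [Pi.add_apply, Pi.sub_apply, neg_mul, sub_neg_eq_add]
  have e3 : (x.1 + fun s => 1 * x.1 s) =
      ((fun s => x.1 0 * rv (ax 0) s) + fun s => x.1 1 * rv (ax 1) s) +
        fun s => x.1 2 * rv (ax 2) s := by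
    funext s
    simp only [Pi.add_apply, ax_rv]
    fin_cases s <;> simp [mul_two]
  have a1 := hg.smul (y := rL (ax 0)) (z := ⟨_, z1⟩) (hm 0) rfl
  have a2 := hg.1 ⟨_, z1⟩ (rL (ax 1)) ⟨_, z2⟩ _ (hm 1) rfl
  have a3 := hg.1 ⟨_, z2⟩ (rL (ax 2)) ⟨_, z3⟩ _ (hm 2) e3
  have a4 := hg.1 x x ⟨_, z3⟩ 1 (one_mem _) rfl
  rw [a4, a2, a1] at a3
  have a5 := congrFun a3 t
  simpa only [Pi.add_apply, one_mul] using a5

theorem red_image (g : ↥twoJ2) (x : ↥icoLeech) (t : Fin 3) :
    red ((g.1 x).1 t) = ∑ s, red (x.1 s) * mat g s t := by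
  have hy : ∀ s, (g.1 (rL (ax s))).1 t ∈ icosians := fun s => (g.1 (rL (ax s))).2.1 t
  have hx := x.2.1
  have h := congrArg red (linear g x t)
  rw [red_add ((g.1 x).2.1 t) ((g.1 x).2.1 t),
    red_add (add_mem (mul_mem (hx 0) (hy 0)) (mul_mem (hx 1) (hy 1))) (mul_mem (hx 2) (hy 2)),
    red_add (mul_mem (hx 0) (hy 0)) (mul_mem (hx 1) (hy 1)),
    red_mul (hx 0) (hy 0), red_mul (hx 1) (hy 1), red_mul (hx 2) (hy 2)] at h
  have h3 : ∀ a : H5, a * 3 = 3 * a := fun a => (Commute.ofNat_left 3 a).eq.symm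
  have h6 : ∀ a : H5, 3 * (a + a) = a := fun a => by
    have : (3 : H5) + 3 = 1 := by ext <;> decide
    rw [mul_add, ← add_mul, this, one_mul]
  have h' := congrArg (3 * ·) h
  simp only [h6] at h'
  rw [h', Fin.sum_univ_three]
  simp only [mat, mul_add, ← mul_assoc, h3]

theorem mat_mul (g h : ↥twoJ2) : mat (g * h) = mat h * mat g := by
  funext s t
  show 3 * red ((g.1 (h.1 (rL (ax s)))).1 t) = _
  rw [red_image, Matrix.mul_apply, Finset.mul_sum]
  simp only [mat, mul_assoc]

theorem mat_one : mat 1 = 1 := by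
  funext s t
  show 3 * red (rv (ax s) t) = _
  rw [ax_rv, Matrix.one_apply]
  rcases eq_or_ne s t with rfl | hne
  · rw [if_pos rfl, if_pos rfl, ← val_two, red_val (by decide +kernel)]
    ext <;> decide
  · rw [if_neg (Ne.symm hne), if_neg hne, red_zero, mul_zero]

theorem mat_negT : mat negT = -1 := by
  funext s t
  show 3 * red (-(rv (ax s) t)) = _
  rw [ax_rv, Matrix.neg_apply, Matrix.one_apply]
  rcases eq_or_ne s t with rfl | hne
  · rw [if_pos rfl, if_pos rfl, ← val_two, ← val_neg, red_val (by decide +kernel)]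
    ext <;> decide
  · rw [if_neg (Ne.symm hne), if_neg hne, neg_zero, red_zero, mul_zero, neg_zero]

/-- one component of a quaternion -/
def comp (q : H5) (c : ℕ) : ZMod 5 :=
  match c with
  | 0 => q.re
  | 1 => q.imI
  | 2 => q.imJ
  | _ => q.imK

/-- a digit of a code -/
def dig (n k : ℕ) : ℕ := (n >>> (3 * k)) % 8

/-- the code with given digits -/
def packF (f : ℕ → ℕ) : ℕ → ℕ
  | 0 => 0
  | m + 1 => packF f m + f m * 8 ^ m

theorem packF_lt {f : ℕ → ℕ} (hf : ∀ k, f k < 8) : ∀ m, packF f m < 8 ^ m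
  | 0 => by simp [packF]
  | m + 1 => by
    have h1 := packF_lt hf m
    have h2 := Nat.mul_le_mul_right (8 ^ m) (Nat.le_of_lt_succ (hf m))
    rw [packF, pow_succ]
    omega

theorem dig_packF {f : ℕ → ℕ} (hf : ∀ k, f k < 8) : ∀ m k, k < m → dig (packF f m) k = f k
  | 0, k, h => absurd h (Nat.not_lt_zero k)
  | m + 1, k, h => by
    have h8 : ∀ j, 2 ^ (3 * j) = 8 ^ j := fun j => by rw [pow_mul]; norm_num
    rw [dig, Nat.shiftRight_eq_div_pow, h8, packF]
    rcases Nat.lt_succ_iff_lt_or_eq.1 h with h' | rfl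
    · obtain ⟨d, rfl⟩ : ∃ d, m = k + (d + 1) := ⟨m - k - 1, by omega⟩
      rw [pow_add, show f (k + (d + 1)) * (8 ^ k * 8 ^ (d + 1)) = f (k + (d + 1)) * 8 ^ (d + 1) * 8 ^ k
        by ring, Nat.add_mul_div_right _ _ (by positivity), pow_succ, ← mul_assoc,
        Nat.add_mul_mod_self_right]
      have := dig_packF hf (k + (d + 1)) k h'
      rwa [dig, Nat.shiftRight_eq_div_pow, h8] at this
    · rw [Nat.add_mul_div_right _ _ (by positivity), Nat.div_eq_of_lt (packF_lt hf k), zero_add,
        Nat.mod_eq_of_lt (hf k)]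

theorem packF_congr {f g : ℕ → ℕ} : ∀ m, (∀ k < m, f k = g k) → packF f m = packF g m
  | 0, _ => rfl
  | m + 1, h => by
    rw [packF, packF, packF_congr m fun k hk => h k (Nat.lt_succ_of_lt hk), h m (Nat.lt_succ_self m)]

/-- an entry of a matrix by number -/
def entry (A : Matrix (Fin 3) (Fin 3) H5) (k : ℕ) : ℕ :=
  (comp (A ⟨k / 12 % 3, Nat.mod_lt _ (by norm_num)⟩ ⟨k / 4 % 3, Nat.mod_lt _ (by norm_num)⟩) (k % 4)).val

/-- the code of a matrix -/
def encM (A : Matrix (Fin 3) (Fin 3) H5) : ℕ := packF (entry A) 36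

theorem entry_lt (A : Matrix (Fin 3) (Fin 3) H5) (k : ℕ) : entry A k < 8 :=
  lt_trans (ZMod.val_lt _) (by norm_num)

theorem dig_encM (A : Matrix (Fin 3) (Fin 3) H5) (k : ℕ) (hk : k < 36) :
    dig (encM A) k = entry A k := dig_packF (entry_lt A) 36 k hk

theorem encM_injective : Function.Injective encM := by
  intro A B h
  have key : ∀ (s t : Fin 3) (c : Fin 4), comp (A s t) c.val = comp (B s t) c.val := by
    intro s t c
    have hk : 12 * s.val + 4 * t.val + c.val < 36 := by omega
    have e := (dig_encM A _ hk).symm.trans ((congrArg (fun n => dig n _) h).trans (dig_encM B _ hk))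
    have e1 : (⟨(12 * s.val + 4 * t.val + c.val) / 12 % 3, Nat.mod_lt _ (by norm_num)⟩ : Fin 3) = s :=
      Fin.ext (show (12 * s.val + 4 * t.val + c.val) / 12 % 3 = s.val by omega)
    have e2 : (⟨(12 * s.val + 4 * t.val + c.val) / 4 % 3, Nat.mod_lt _ (by norm_num)⟩ : Fin 3) = t :=
      Fin.ext (show (12 * s.val + 4 * t.val + c.val) / 4 % 3 = t.val by omega)
    have e3 : (12 * s.val + 4 * t.val + c.val) % 4 = c.val := by omega
    simp only [entry, e1, e2, e3] at e
    exact ZMod.val_injective 5 e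
  funext s t
  ext
  exacts [key s t 0, key s t 1, key s t 2, key s t 3]

/-- a component of the product of two quaternions given by digits -/
def qp (p0 p1 p2 p3 q0 q1 q2 q3 : ℕ) : ℕ → ℕ
  | 0 => p0 * q0 + 4 * (p1 * q1) + 4 * (p2 * q2) + 4 * (p3 * q3)
  | 1 => p0 * q1 + p1 * q0 + p2 * q3 + 4 * (p3 * q2)
  | 2 => p0 * q2 + 4 * (p1 * q3) + p2 * q0 + p3 * q1
  | _ => p0 * q3 + p1 * q2 + 4 * (p2 * q1) + p3 * q0

/-- one summand of an entry of the product of codes -/
def term (a b i j c : ℕ) : ℕ :=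
  qp (dig b i) (dig b (i + 1)) (dig b (i + 2)) (dig b (i + 3))
    (dig a j) (dig a (j + 1)) (dig a (j + 2)) (dig a (j + 3)) c

/-- a digit of the product of codes -/
def pdig (a b k : ℕ) : ℕ :=
  let i := 12 * (k / 12 % 3)
  let j := 4 * (k / 4 % 3)
  let c := k % 4
  (term a b i j c + term a b (i + 4) (12 + j) c + term a b (i + 8) (24 + j) c) % 5

/-- the product of codes -/
def cmul (a b : ℕ) : ℕ := packF (pdig a b) 36

theorem qp_cast (p q : H5) (c : ℕ) :
    (qp (p.re).val (p.imI).val (p.imJ).val (p.imK).val (q.re).val (q.imI).val (q.imJ).val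
      (q.imK).val c : ZMod 5) = comp (p * q) c := by
  have h4 : (4 : ZMod 5) = -1 := by decide
  match c with
  | 0 => simp [qp, comp, Quaternion.re_mul, h4]; ring
  | 1 => simp [qp, comp, Quaternion.imI_mul, h4]; ring
  | 2 => simp [qp, comp, Quaternion.imJ_mul, h4]; ring
  | c + 3 => simp [qp, comp, Quaternion.imK_mul, h4]; ring

theorem comp_add (p q : H5) (c : ℕ) : comp (p + q) c = comp p c + comp q c := by
  match c with
  | 0 => rfl
  | 1 => rfl
  | 2 => rfl
  | c + 3 => rfl

theorem term_cast (A B : Matrix (Fin 3) (Fin 3) H5) (s u t : Fin 3) (c : ℕ) :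
    (term (encM A) (encM B) (12 * s.val + 4 * u.val) (12 * u.val + 4 * t.val) c : ZMod 5) =
      comp (B s u * A u t) c := by
  have key : ∀ (C : Matrix (Fin 3) (Fin 3) H5) (x y : Fin 3) (d : Fin 4),
      dig (encM C) (12 * x.val + 4 * y.val + d.val) = (comp (C x y) d.val).val := by
    intro C x y d
    rw [dig_encM C _ (by omega)]
    have e1 : (⟨(12 * x.val + 4 * y.val + d.val) / 12 % 3, Nat.mod_lt _ (by norm_num)⟩ : Fin 3) = x :=
      Fin.ext (show (12 * x.val + 4 * y.val + d.val) / 12 % 3 = x.val by omega)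
    have e2 : (⟨(12 * x.val + 4 * y.val + d.val) / 4 % 3, Nat.mod_lt _ (by norm_num)⟩ : Fin 3) = y :=
      Fin.ext (show (12 * x.val + 4 * y.val + d.val) / 4 % 3 = y.val by omega)
    have e3 : (12 * x.val + 4 * y.val + d.val) % 4 = d.val := by omega
    simp only [entry, e1, e2, e3]
  rw [← qp_cast, term]
  have b0 := key B s u 0; have b1 := key B s u 1; have b2 := key B s u 2; have b3 := key B s u 3
  have a0 := key A u t 0; have a1 := key A u t 1; have a2 := key A u t 2; have a3 := key A u t 3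
  simp only [Fin.val_zero, Fin.val_one, Fin.val_two, add_zero] at b0 b1 b2 b3 a0 a1 a2 a3
  simp only [show ((3 : Fin 4) : ℕ) = 3 from rfl] at b3 a3
  rw [b0, b1, b2, b3, a0, a1, a2, a3]
  rfl

theorem cmul_encM (A B : Matrix (Fin 3) (Fin 3) H5) : cmul (encM A) (encM B) = encM (B * A) := by
  refine packF_congr 36 fun k _ => ?_
  rw [pdig, entry, ← ZMod.val_natCast]
  congr 1
  rw [Matrix.mul_apply, Fin.sum_univ_three, comp_add, comp_add]
  push_cast
  simp only [← term_cast, Fin.val_zero, Fin.val_one, Fin.val_two, Nat.mul_zero, Nat.mul_one,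
    Nat.add_zero, Nat.zero_add]

/-- a generating reflection -/
noncomputable def tg (k : Fin 4) : ↥twoJ2 :=
  ⟨reflP (gline k), Subgroup.subset_closure ((isIcoReflection_iff _).2 ⟨_, rfl⟩)⟩

/-- the coordinates of an image of an axis under a generating reflection -/
def imgIQ (k : Fin 4) (s t : Fin 3) : IQ :=
  let v := qreflQ (rep (genLines.getD k.val 0)) (rep (ax s).val)
  ![v.1, v.2.1, v.2.2] t

theorem tg_image (k : Fin 4) (s t : Fin 3) :
    ((tg k).1 (rL (ax s))).1 t = val (imgIQ k s t) := by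
  have h := List.all_eq_true.1 (gen_table k).2 (ax s).val (List.mem_range.2 (ax s).2)
  simp only [genOK, Bool.and_eq_true, decide_eq_true_eq, Nat.blt_eq] at h
  obtain ⟨h8, hI, -, -, -⟩ := h
  set q := eighth (ipV (rep (ax s).val) (rep (genLines.getD k.val 0))) with hq
  obtain ⟨r0, r1, r2⟩ := inLat_mem (rep_mem (gline k).2)
  have eq : qip (rv (ax s)) (rv (gline k)) = 2 * val q := by
    refine mul_left_cancel₀ four_ne ?_
    rw [rv, rv, ← val_ipV, show (gline k).val = genLines.getD k.val 0 from rfl, ← h8, val_smul,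
      zsmul_eq_mul, ← mul_assoc]
    norm_num
  show (reflP (gline k) (rL (ax s))).1 t = _
  rw [reflP_apply, show (rL (ax s)).1 = rv (ax s) from rfl, qrefl_eq eq, imgIQ]
  simp only [qreflQ, ← hq]
  fin_cases t
  · exact ((val_sub _ _).trans (congrArg _ (val_mul' hI r0))).symm
  · exact ((val_sub _ _).trans (congrArg _ (val_mul' hI r1))).symm
  · exact ((val_sub _ _).trans (congrArg _ (val_mul' hI r2))).symm

/-- the matrix of a generating reflection, computed -/
def genMat (k : Fin 4) : Matrix (Fin 3) (Fin 3) H5 := fun s t => 3 * r5 (imgIQ k s t)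

theorem mat_tg (k : Fin 4) : mat (tg k) = genMat k := by
  funext s t
  have hm := ((tg k).1 (rL (ax s))).2.1 t
  show 3 * red _ = _
  rw [tg_image] at hm ⊢
  rw [red_val (memI_of_mem hm)]
  rfl

/-- the matrices, as a homomorphism to the opposite monoid -/
noncomputable def matHom : ↥twoJ2 →* (Matrix (Fin 3) (Fin 3) H5)ᵐᵒᵖ where
  toFun g := MulOpposite.op (mat g)
  map_one' := by rw [mat_one]; rfl
  map_mul' g h := by rw [mat_mul]; rfl

theorem neg_ne : encM (1 : Matrix (Fin 3) (Fin 3) H5) ≠ encM (-1) ∧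
    encM (genMat 0) ≠ encM 1 ∧ encM (genMat 0) ≠ encM (-1) := by decide +kernel

theorem mat_eq_one {g : ↥twoJ2} (h : mat g = 1) : g = 1 := by
  haveI := simple_J2.1
  have hc : ∀ z ∈ Subgroup.center ↥twoJ2, z = 1 ∨ z = negT := fun z hz =>
    mem_ker_act.1 (center_eq_ker ▸ hz)
  have hmem : g ∈ matHom.ker := by rw [MonoidHom.mem_ker]; exact congrArg MulOpposite.op h
  let p := QuotientGroup.mk' (Subgroup.center ↥twoJ2)
  have hn : (matHom.ker.map p).Normal :=
    Subgroup.Normal.map inferInstance p (QuotientGroup.mk'_surjective _)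
  rcases hn.eq_bot_or_eq_top with hb | ht
  · have hle : matHom.ker ≤ Subgroup.center ↥twoJ2 := by
      rw [Subgroup.map_eq_bot_iff, QuotientGroup.ker_mk'] at hb; exact hb
    rcases hc g (hle hmem) with rfl | rfl
    · rfl
    · rw [mat_negT] at h
      exact absurd (congrArg encM h.symm) neg_ne.1
  · exfalso
    obtain ⟨n, hn1, hn2⟩ := (ht ▸ Subgroup.mem_top (p (tg 0)) : p (tg 0) ∈ matHom.ker.map p)
    have hz : n⁻¹ * tg 0 ∈ Subgroup.center ↥twoJ2 := QuotientGroup.eq.1 hn2
    have hn3 : mat n = 1 := congrArg MulOpposite.unop (MonoidHom.mem_ker.1 hn1)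
    have e : mat (tg 0) = mat (n⁻¹ * tg 0) := by
      conv_lhs => rw [← mul_inv_cancel_left n (tg 0), mat_mul, hn3, mul_one]
    rw [mat_tg] at e
    rcases hc _ hz with hz' | hz' <;> rw [hz'] at e
    · exact neg_ne.2.1 (by rw [e, mat_one])
    · exact neg_ne.2.2 (by rw [e, mat_negT])

theorem mat_injective : Function.Injective mat := by
  intro a b h
  have h1 : mat (a * b⁻¹) = 1 := by
    rw [mat_mul, h, ← mat_mul, mul_inv_cancel, mat_one]
  exact mul_inv_eq_one.1 (mat_eq_one h1)

/-- the code of the identity -/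
def oneCode : ℕ := 79228162514264619068520660993

theorem encM_one : encM 1 = oneCode := by decide +kernel

/-- the code of the reflection group -/
noncomputable def code : SchurCert.Code ↥twoJ2 where
  mul := cmul
  one := oneCode
  enc g := encM (mat g)
  enc_one := (congrArg encM mat_one).trans encM_one
  enc_mul a b := (congrArg encM (mat_mul a b)).trans (cmul_encM (mat a) (mat b)).symm
  enc_inj := encM_injective.comp mat_injective

/-- the value of a word in the generating reflections -/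
noncomputable def elW (w : List (Fin 4)) : ↥twoJ2 := (w.map tg).prod

/-- the code of a word -/
def codeW : List (Fin 4) → ℕ
  | [] => oneCode
  | k :: w => cmul (encM (genMat k)) (codeW w)

theorem code_enc (g : ↥twoJ2) : code.enc g = encM (mat g) := rfl

theorem enc_elW (w : List (Fin 4)) : code.enc (elW w) = codeW w := by
  induction w with
  | nil => rw [code_enc, elW, List.map_nil, List.prod_nil, mat_one, encM_one, codeW]
  | cons k w ih =>
    rw [code_enc, elW, List.map_cons, List.prod_cons, mat_mul, ← cmul_encM, ← elW, ← code_enc (elW w),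
      ih, mat_tg, codeW]

end Cfsg.Agent.Janko2.Mod5
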