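import Cfsg.Agent.Janko2.Hundred
import Cfsg.Agent.ChevSmall.G2U

/-!
The stabiliser of a set of 63 lines is the unitary group of degree three over nine elements.
-/

set_option autoImplicit false

namespace Cfsg.Agent.Janko2

open Cfsg.Spor Quaternion IQ

/-- the code of a line relative to the separating lines -/
def sepCode (i : ℕ) : ℕ :=
  sepLines.foldl (fun a w =>
    a * 32 + ((normSq (ipV (rep i) (rep w))).1 / 512 * 3 + (normSq (ipV (rep i) (rep w))).2 / 512 + 1).toNat) 0

theorem sepTab_ok : (List.range 315).map sepCode = sepTab := by decide +kernel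

theorem sepTab_nodup : sepTab.Nodup := by decide +kernel

theorem normSq_invariant (G : ↥GU) (x w : Fin 315) :
    normSq (ipV (rep x.val) (rep w.val)) =
      normSq (ipV (rep (lineOf G x).val) (rep (lineOf G w).val)) := by
  obtain ⟨k, hk⟩ := lineOf_spec G x
  obtain ⟨l, hl⟩ := lineOf_spec G w
  have h := G.2.2 (rL x) (rL w)
  rw [hk, hl, qip_smul_left, qip_smul_right] at h
  set u := val (un k.val)
  set v := val (un l.val)
  have e1 := normSq_val (ipV (rep x.val) (rep w.val))
  have e2 := normSq_val (ipV (rep (lineOf G x).val) (rep (lineOf G w).val))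
  rw [val_ipV] at e1 e2
  set p := qip (rv (lineOf G x)) (rv (lineOf G w)) with hp
  rw [show qip (vec (rep x.val)) (vec (rep w.val)) = u * (p * star v) from h.symm] at e1
  rw [show qip (vec (rep (lineOf G x).val)) (vec (rep (lineOf G w).val)) = p from hp.symm] at e2
  have hc : ∀ a : ℍ[ℝ], (4 : ℍ[ℝ]) * a = a * 4 := fun a => (Commute.ofNat_left 4 a).eq
  have hs4 : star (4 : ℍ[ℝ]) = 4 := star_ofNat (R := ℍ[ℝ]) 4
  have e3 : (4 * (u * (p * star v))) * star (4 * (u * (p * star v))) * 4 =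
      u * ((4 * p) * star (4 * p) * 4) * star u := by
    simp only [star_mul, star_star, hs4, mul_assoc]
    rw [← mul_assoc (star v) v, (unit_norm l.2).2, one_mul]
    simp only [← mul_assoc, hc]
  rw [e3, e2, ← Quaternion.coe_commutes, mul_assoc, (unit_norm k.2).1, mul_one] at e1
  exact (Prod.ext (coord_inj (Quaternion.coe_injective e1)).1 (coord_inj (Quaternion.coe_injective e1)).2).symm

theorem sep_facts : (∀ w ∈ sepLines, w < 315) ∧ (∀ w ∈ sepLines, w ∈ ptTab) ∧ ptTab.length = 63 ∧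
    ptTab.Nodup ∧ (∀ w ∈ ptTab, w < 315) := by
  decide +kernel

theorem eq_one_of_fix_points {g : Equiv.Perm (Fin 315)} (hg : g ∈ K)
    (hfix : ∀ x : Fin 315, x.val ∈ ptTab → g x = x) : g = 1 := by
  obtain ⟨G, rfl⟩ := K_le_range hg
  refine Equiv.ext fun x => ?_
  rw [Equiv.Perm.one_apply]
  have hnd : ((List.range 315).map sepCode).Nodup := sepTab_ok ▸ sepTab_nodup
  refine Fin.ext (List.inj_on_of_nodup_map hnd (List.mem_range.2 (Fin.isLt _)) (List.mem_range.2 x.2) ?_)
  have key : ∀ w ∈ sepLines, normSq (ipV (rep (rho G x).val) (rep w)) = normSq (ipV (rep x.val) (rep w)) := by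
    intro w hw
    obtain ⟨h1, h2, -⟩ := sep_facts
    have hfw := hfix ⟨w, h1 w hw⟩ (h2 w hw)
    have := normSq_invariant G x ⟨w, h1 w hw⟩
    rw [← rho_apply, ← rho_apply, hfw] at this
    exact this.symm
  have hfold : ∀ (l : List ℕ) (a : ℕ), (∀ w ∈ l, w ∈ sepLines) →
      l.foldl (fun a w => a * 32 + ((normSq (ipV (rep (rho G x).val) (rep w))).1 / 512 * 3 +
        (normSq (ipV (rep (rho G x).val) (rep w))).2 / 512 + 1).toNat) a =
      l.foldl (fun a w => a * 32 + ((normSq (ipV (rep x.val) (rep w))).1 / 512 * 3 +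
        (normSq (ipV (rep x.val) (rep w))).2 / 512 + 1).toNat) a := by
    intro l
    induction l with
    | nil => intro _ _; rfl
    | cons w l ih =>
      intro a hl
      rw [List.foldl_cons, List.foldl_cons, key w (hl w (List.mem_cons_self ..))]
      exact ih _ fun v hv => hl v (List.mem_cons_of_mem _ hv)
  exact hfold sepLines 0 fun w hw => hw

/-- a point of the unitary model as a line -/
def ptLine (i : Fin 63) : Fin 315 := ⟨ptTab.getD i.val 0 % 315, Nat.mod_lt _ (by norm_num)⟩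

theorem ptLine_facts : (∀ i j : Fin 63, ptLine i = ptLine j → i = j) ∧
    (∀ k : Fin 2, ∀ i : Fin 63,
      tapp k.val (ptLine i).val = (ptLine (ChevSmall.G2.cperm k.val i)).val) := by
  decide +kernel

/-- the permutation induced on the points of the unitary model -/
def PtInd (g : Equiv.Perm (Fin 315)) (τ : Equiv.Perm (Fin 63)) : Prop :=
  ∀ i, g (ptLine i) = ptLine (τ i)

theorem ptInd_unique {g : Equiv.Perm (Fin 315)} {σ τ : Equiv.Perm (Fin 63)} (h : PtInd g σ)
    (h' : PtInd g τ) : σ = τ :=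
  Equiv.ext fun i => ptLine_facts.1 _ _ ((h i).symm.trans (h' i))

theorem ptInd_ab (k : Fin 2) : PtInd (abEl k).1 (ChevSmall.G2.cperm k.val) := fun i =>
  Fin.ext ((abEl_apply k _).trans (ptLine_facts.2 k i))

theorem exists_ptInd {g : ↥K} (hg : g ∈ Lab) : ∃ τ ∈ ChevSmall.G2.derived, PtInd g.1 τ := by
  induction hg using Subgroup.closure_induction with
  | mem x hx =>
    obtain ⟨k, rfl⟩ := hx
    exact ⟨_, ChevSmall.G2.cperm_mem k.2, ptInd_ab k⟩
  | one => exact ⟨1, one_mem _, fun i => rfl⟩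
  | mul x y _ _ hx hy =>
    obtain ⟨σ, hσ, h⟩ := hx
    obtain ⟨τ, hτ, h'⟩ := hy
    exact ⟨σ * τ, mul_mem hσ hτ, fun i => by
      show x.1 (y.1 (ptLine i)) = ptLine (σ (τ i))
      rw [h', h]⟩
  | inv x _ hx =>
    obtain ⟨σ, hσ, h⟩ := hx
    refine ⟨σ⁻¹, inv_mem hσ, fun i => ?_⟩
    show x.1⁻¹ (ptLine i) = ptLine (σ⁻¹ i)
    rw [Equiv.Perm.inv_eq_iff_eq, h, show σ (σ⁻¹ i) = i from σ.apply_symm_apply i]

/-- restriction to the points of the unitary model -/
noncomputable def restr : ↥Lab →* ↥ChevSmall.G2.derived :=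
  MonoidHom.mk' (fun g => ⟨(exists_ptInd g.2).choose, (exists_ptInd g.2).choose_spec.1⟩) fun g h =>
    Subtype.ext (ptInd_unique (exists_ptInd (g * h).2).choose_spec.2 fun i => by
      show g.1.1 (h.1.1 (ptLine i)) = ptLine ((exists_ptInd g.2).choose ((exists_ptInd h.2).choose i))
      rw [(exists_ptInd h.2).choose_spec.2, (exists_ptInd g.2).choose_spec.2])

theorem restr_spec (g : ↥Lab) : PtInd g.1.1 (restr g).1 := (exists_ptInd g.2).choose_spec.2

theorem restr_injective : Function.Injective restr := by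
  rw [injective_iff_map_eq_one]
  intro g hg
  refine Subtype.ext (Subtype.ext (eq_one_of_fix_points g.1.2 fun x hx => ?_))
  obtain ⟨i, hi, e⟩ := List.getElem_of_mem hx
  obtain ⟨-, -, hlen, -, hlt⟩ := sep_facts
  have hpt : ptLine ⟨i, hlen ▸ hi⟩ = x := by
    apply Fin.ext
    show ptTab.getD i 0 % 315 = x.val
    rw [List.getD_eq_getElem _ _ hi, e]
    exact Nat.mod_eq_of_lt x.2
  have := restr_spec g ⟨i, hlen ▸ hi⟩
  rw [hg, hpt] at this
  exact this.trans hpt

theorem restr_surjective : Function.Surjective restr := by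
  rw [← MonoidHom.range_eq_top, eq_top_iff]
  intro t _
  have h : ChevSmall.G2.derived ≤ restr.range.map (Subgroup.subtype _) := by
    refine (Subgroup.closure_le _).2 ?_
    have key : ∀ k : Fin 2, ChevSmall.G2.cperm k.val ∈ restr.range.map (Subgroup.subtype _) := fun k =>
      ⟨restr ⟨abEl k, Subgroup.subset_closure ⟨k, rfl⟩⟩, ⟨_, rfl⟩,
        ptInd_unique (restr_spec ⟨abEl k, Subgroup.subset_closure ⟨k, rfl⟩⟩) (ptInd_ab k)⟩
    rintro _ (rfl | rfl)
    · exact key 0
    · exact key 1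
  obtain ⟨s, hs, e⟩ := h t.2
  rwa [← Subtype.ext e]

theorem Hs_psu {F : Type} [Field F] [Fintype F] (hF : Fintype.card F = 9) :
    Nonempty (↥Hs ≃* Cfsg.PSU 3 F 3) := by
  let e : ↥Hs ≃* ↥ChevSmall.G2.derived :=
    (MulEquiv.subgroupCongr Hs_eq).trans (MulEquiv.ofBijective restr ⟨restr_injective, restr_surjective⟩)
  obtain ⟨f⟩ := ChevSmall.G2.iso_psu hF (by rw [← Nat.card_congr e.toEquiv, card_Hs])
  exact ⟨e.trans f⟩

end Cfsg.Agent.Janko2
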